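import Mathlib
import Cfsg.Agent.Lib.Glauberman.FixCount
import Cfsg.Agent.Lib.Glauberman.CyclicMain
import Cfsg.Agent.Lib.CharZeros.Gallagher
import Cfsg.Agent.Lib.CharDeep.GallagherExt
import Cfsg.Agent.Lib.Char.DegDvd
import Cfsg.Agent.Lib.Char.Degree
import Cfsg.Agent.Lib.Char.Clifford

/-!
# Characters of degree prime to a coprime complement
-/

set_option autoImplicit false

namespace Cfsg.Agent.Lib.Glauberman.ExtCount

open Cfsg Cfsg.Agent.Lib.Char.Basic Cfsg.Agent.Lib.Char.Ortho Cfsg.Agent.Lib.Char.Complete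
open Cfsg.Agent.Lib.Glauberman.ConjAct Cfsg.Agent.Lib.Glauberman.CyclicMain
open Cfsg.Agent.Lib.Char.Degree Cfsg.Agent.Lib.Char.Clifford Cfsg.Agent.Lib.Char.Conj
open scoped ComplexConjugate

universe u

variable {G : Type u} [Group G] [Fintype G] {K H : Subgroup G}

/-- The complement is isomorphic to the quotient. -/
theorem exists_proj [hK : K.Normal] (hKH : K ⊔ H = ⊤) (hdisj : K ⊓ H = ⊥) :
    ∃ (e : H ≃* G ⧸ K), ∀ h : H, e h = ((h : G) : G ⧸ K) := by
  have hinj : Function.Injective ((QuotientGroup.mk' K).comp H.subtype) := by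
    rw [injective_iff_map_eq_one]
    intro h hh
    have h1 : (h : G) ∈ K := (QuotientGroup.eq_one_iff _).mp hh
    have h2 : (h : G) ∈ K ⊓ H := ⟨h1, h.2⟩
    rw [hdisj] at h2
    exact Subtype.ext h2
  have hsurj : Function.Surjective ((QuotientGroup.mk' K).comp H.subtype) := by
    intro x
    obtain ⟨g, rfl⟩ := QuotientGroup.mk'_surjective K x
    have hg : g ∈ ((K ⊔ H : Subgroup G) : Set G) := by rw [hKH]; trivial
    rw [Subgroup.normal_mul] at hg
    obtain ⟨k, hk, h, hh, rfl⟩ := Set.mem_mul.mp hg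
    refine ⟨⟨h, hh⟩, ?_⟩
    show ((h : G) : G ⧸ K) = ((k * h : G) : G ⧸ K)
    rw [QuotientGroup.eq]
    have h2 := hK.conj_mem k hk h⁻¹
    simpa [mul_assoc] using h2
  exact ⟨MulEquiv.ofBijective _ ⟨hinj, hsurj⟩, fun h => rfl⟩

/-- The number of characters of degree prime to the order of a coprime complement. -/
theorem card_coprime_deg [hK : K.Normal] [Fintype K] (hKH : K ⊔ H = ⊤)
    (hcop : (Nat.card K).Coprime (Nat.card H)) :
    Nat.card {χ : IrrCharacter G // (charDegree (χ : G → ℂ)).Coprime (Nat.card H)} =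
      Nat.card {θ : IrrCharacter K // ∀ s ∈ H, ∀ g g' : K, (g' : G) = s * g * s⁻¹ →
        (θ : K → ℂ) g' = (θ : K → ℂ) g} * Nat.card (H →* ℂˣ) := by
  classical
  have hnorm : ∀ s ∈ H, ∀ g ∈ K, s * g * s⁻¹ ∈ K := fun s _ g hg => hK.conj_mem g hg s
  have hdisj : K ⊓ H = ⊥ := (Subgroup.disjoint_of_coprime_natCard hcop).eq_bot
  obtain ⟨e, he⟩ := exists_proj hKH hdisj
  let ψ : G →* H := e.symm.toMonoidHom.comp (QuotientGroup.mk' K)
  have hψK : ∀ k ∈ K, ψ k = 1 := by
    intro k hk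
    show e.symm ((k : G) : G ⧸ K) = 1
    rw [(QuotientGroup.eq_one_iff k).mpr hk, map_one]
  have hψH : ∀ h : H, ψ h = h := by
    intro h
    show e.symm ((h : G) : G ⧸ K) = h
    rw [← he h, e.symm_apply_apply]
  have hindex : K.index = Nat.card H := by
    have h1 : K.index = Nat.card (G ⧸ K) := Subgroup.index_eq_card K
    rw [h1]
    exact (Nat.card_congr e.toEquiv).symm
  -- the chosen extension
  have hcan : ∀ θ : {θ : IrrCharacter K // ∀ s ∈ H, ∀ g g' : K, (g' : G) = s * g * s⁻¹ →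
      (θ : K → ℂ) g' = (θ : K → ℂ) g}, ∃ χ : IrrCharacter G, ∀ g : K, (χ : G → ℂ) g = (θ.1 : K → ℂ) g := by
    intro θ
    obtain ⟨χ, h1, -⟩ := exists_canon hnorm hcop hKH θ.1 θ.2
    exact ⟨χ, h1⟩
  choose ext hext using hcan
  have hdegK : ∀ θ : IrrCharacter K, (charDegree (θ : K → ℂ)).Coprime (Nat.card H) := fun θ =>
    hcop.coprime_dvd_left (charDegree_dvd_card θ.2)
  let f : {θ : IrrCharacter K // ∀ s ∈ H, ∀ g g' : K, (g' : G) = s * g * s⁻¹ →
      (θ : K → ℂ) g' = (θ : K → ℂ) g} × (H →* ℂˣ) → IrrCharacter G := fun p =>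
    ⟨fun g => ((p.2 (ψ g) : ℂˣ) : ℂ) * (ext p.1 : G → ℂ) g,
      Cfsg.Agent.Lib.CharZeros.Gallagher.isIrrCharacter_mul_linear
        (ν := fun g => ((p.2 (ψ g) : ℂˣ) : ℂ))
        (Cfsg.Agent.Lib.CharDeep.LinearChar.isCharacter_of_hom (p.2.comp ψ)) (by simp) (ext p.1).2⟩
  have hfdeg : ∀ p, charDegree (f p : G → ℂ) = charDegree (p.1.1 : K → ℂ) := by
    intro p
    have h1 : ((charDegree (f p : G → ℂ) : ℕ) : ℂ) = ((charDegree (p.1.1 : K → ℂ) : ℕ) : ℂ) := by
      rw [charDegree_natCast (isCharacter_of_isIrrCharacter (f p).2),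
        charDegree_natCast (isCharacter_of_isIrrCharacter p.1.1.2)]
      show ((p.2 (ψ 1) : ℂˣ) : ℂ) * (ext p.1 : G → ℂ) 1 = _
      rw [map_one, map_one, Units.val_one, one_mul]
      exact hext p.1 1
    exact_mod_cast h1
  rw [← Nat.card_prod]
  symm
  refine Nat.card_congr (Equiv.ofBijective
    (fun p => ⟨f p, by rw [hfdeg]; exact hdegK _⟩) ⟨?_, ?_⟩)
  · -- injective
    rintro ⟨θ, l⟩ ⟨θ', l'⟩ h
    have h0 : ∀ g, ((l (ψ g) : ℂˣ) : ℂ) * (ext θ : G → ℂ) g = ((l' (ψ g) : ℂˣ) : ℂ) * (ext θ' : G → ℂ) g :=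
      fun g => congrFun (congrArg (fun x => ((x.1 : IrrCharacter G) : G → ℂ)) h) g
    have hθ : θ = θ' := by
      apply Subtype.ext
      apply Subtype.ext
      funext k
      have h1 := h0 k
      rw [hψK k k.2, map_one, map_one, Units.val_one, one_mul, one_mul, hext, hext] at h1
      exact h1
    subst hθ
    have hne : ∀ g, (ext θ : G → ℂ) g ≠ 0 ∨ True := fun g => Or.inr trivial
    have hirr : IsIrrCharacter K (fun n : K => (ext θ : G → ℂ) n) := by
      have h1 : (fun n : K => (ext θ : G → ℂ) n) = (θ.1 : K → ℂ) := funext (hext θ)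
      rw [h1]
      exact θ.1.2
    have hν := Cfsg.Agent.Lib.CharZeros.Gallagher.eq_one_of_mul_eq K (ext θ).2 hirr
      (ν := fun g => (((l * l'⁻¹) (ψ g) : ℂˣ) : ℂ))
      (Cfsg.Agent.Lib.CharDeep.LinearChar.isCharacter_of_hom ((l * l'⁻¹).comp ψ)) (by simp)
      (fun n hn => by simp [hψK n hn])
      (fun x => by
        have h1 := h0 x
        simp only [MonoidHom.mul_apply, MonoidHom.inv_apply, Units.val_mul]
        have h2 : ((l' (ψ x) : ℂˣ) : ℂ) ≠ 0 := Units.ne_zero _
        calc ((l (ψ x) : ℂˣ) : ℂ) * (((l' (ψ x))⁻¹ : ℂˣ) : ℂ) * (ext θ : G → ℂ) x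
            = (((l (ψ x) : ℂˣ) : ℂ) * (ext θ : G → ℂ) x) * ((l' (ψ x) : ℂˣ) : ℂ)⁻¹ := by
              rw [Units.val_inv_eq_inv_val]; ring
          _ = (ext θ : G → ℂ) x := by
              rw [h1]; field_simp)
    have hl : l = l' := by
      ext h
      have h1 := congrFun hν (h : G)
      simp only [MonoidHom.mul_apply, MonoidHom.inv_apply, hψH] at h1
      have h2 : l h * (l' h)⁻¹ = 1 := Units.ext h1
      exact congrArg Units.val (mul_inv_eq_one.mp h2)
    rw [hl]
  · -- surjective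
    rintro ⟨χ, hχ⟩
    have hres : IsCharacter K (fun n : K => (χ : G → ℂ) n) :=
      isCharacter_comp K.subtype (isCharacter_of_isIrrCharacter χ.2)
    have hne : (fun n : K => (χ : G → ℂ) n) ≠ 0 := by
      intro h
      exact irr_one_ne_zero χ.2 (congrFun h 1)
    obtain ⟨θ₀, hθ₀, hcon⟩ := exists_irr_constituent (isClassFunction_of_isCharacter hres) hne
    obtain ⟨a, t, h1, h2⟩ := Cfsg.Agent.Lib.Char.DegDvd.dvd_index_of_constituent hK hθ₀ χ.2 hcon
    have h3 : charDegree (χ : G → ℂ) = a * t * charDegree θ₀ := by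
      have h4 : ((charDegree (χ : G → ℂ) : ℕ) : ℂ) = ((a * t * charDegree θ₀ : ℕ) : ℂ) := by
        rw [charDegree_natCast (isCharacter_of_isIrrCharacter χ.2), Nat.cast_mul,
          charDegree_natCast (isCharacter_of_isIrrCharacter hθ₀), h1]
      exact_mod_cast h4
    have h5 : a * t = 1 := by
      rw [hindex] at h2
      exact Nat.eq_one_of_dvd_coprimes hχ (Dvd.intro _ h3.symm) h2
    rw [h5] at h1
    have h6 : (χ : G → ℂ) 1 = θ₀ 1 := by
      rw [h1]
      simp
    obtain ⟨d, hd⟩ := exists_deg_of_isCharacter (isCharacter_of_isIrrCharacter hθ₀)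
    have h7 : (fun n : K => (χ : G → ℂ) n) = θ₀ :=
      eq_of_constituent_of_deg_le hres hθ₀ hcon (a := d) (b := d) (h6.trans hd) hd le_rfl
    have hinvθ : ∀ s ∈ H, ∀ g g' : K, (g' : G) = s * g * s⁻¹ → θ₀ g' = θ₀ g := by
      intro s hs g g' hg'
      rw [← h7]
      show (χ : G → ℂ) g' = (χ : G → ℂ) g
      rw [hg']
      exact isClassFunction_of_isIrrCharacter χ.2 g s
    let Θ : {θ : IrrCharacter K // ∀ s ∈ H, ∀ g g' : K, (g' : G) = s * g * s⁻¹ →
      (θ : K → ℂ) g' = (θ : K → ℂ) g} := ⟨⟨θ₀, hθ₀⟩, hinvθ⟩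
    have hχhat : (fun n : K => (ext Θ : G → ℂ) n) = θ₀ := funext (hext Θ)
    have hresirr : IsIrrCharacter K (fun n : K => (ext Θ : G → ℂ) n) := by
      rw [hχhat]
      exact hθ₀
    have hne2 : classInner (fun n : K => (χ : G → ℂ) n) (fun n : K => (ext Θ : G → ℂ) n) ≠ 0 := by
      rw [hχhat, h7, classInner_self_of_isIrr hθ₀]
      exact one_ne_zero
    obtain ⟨φ, hφ, hχφ⟩ := Cfsg.Agent.Lib.CharDeep.GallagherExt.exists_eq_mul_of_classInner_ne_zero K
      (isCharacter_of_isIrrCharacter (ext Θ).2) hresirr χ.2 hne2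
    have hφ1 : φ 1 = 1 := by
      have h8 := congrFun hχφ 1
      simp only [Pi.mul_apply, Function.comp, map_one] at h8
      have h9 : (ext Θ : G → ℂ) 1 = θ₀ 1 := hext Θ 1
      rw [h6, h9] at h8
      have h10 : θ₀ 1 ≠ 0 := irr_one_ne_zero hθ₀
      exact (mul_left_cancel₀ h10 (h8.symm.trans (mul_one _).symm))
    obtain ⟨lam, hlam⟩ := Cfsg.Agent.Lib.Char.Linear.exists_hom_of_deg_one
      (isCharacter_of_isIrrCharacter hφ) hφ1
    refine ⟨(Θ, lam.comp e.toMonoidHom), Subtype.ext (Subtype.ext (funext fun g => ?_))⟩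
    show ((lam (e (ψ g)) : ℂˣ) : ℂ) * (ext Θ : G → ℂ) g = (χ : G → ℂ) g
    rw [hχφ, hlam]
    have h11 : e (ψ g) = QuotientGroup.mk' K g := e.apply_symm_apply _
    rw [h11]
    simp only [Pi.mul_apply, Function.comp]
    ring

/-- The count for a normal subgroup and a coprime solvable complement, and the normaliser of the
complement. -/
theorem card_coprime_deg_normalizer {G : Type u} [Group G] [Finite G] (K H : Subgroup G) [hK : K.Normal]
    (hKH : K ⊔ H = ⊤) (hcop : (Nat.card K).Coprime (Nat.card H)) (hsolv : Group.IsSolvable H) :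
    Nat.card {χ : IrrCharacter G // (charDegree (χ : G → ℂ)).Coprime (Nat.card H)} =
      Nat.card {η : IrrCharacter (Subgroup.normalizer (H : Set G)) //
        (charDegree (η : Subgroup.normalizer (H : Set G) → ℂ)).Coprime (Nat.card H)} := by
  classical
  letI : Fintype G := Fintype.ofFinite G
  letI : Fintype K := Fintype.ofFinite K
  let N : Subgroup G := Subgroup.normalizer (H : Set G)
  letI : Fintype N := Fintype.ofFinite N
  have hnorm : ∀ s ∈ H, ∀ g ∈ K, s * g * s⁻¹ ∈ K := fun s _ g hg => hK.conj_mem g hg s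
  have hdisj : K ⊓ H = ⊥ := (Subgroup.disjoint_of_coprime_natCard hcop).eq_bot
  have hHN : H ≤ N := Subgroup.le_normalizer
  -- commuting
  have hcomm : ∀ c ∈ K, c ∈ N → ∀ h ∈ H, c * h = h * c := by
    intro c hc hcN h hh
    have h1 : c * h * c⁻¹ ∈ H := (Subgroup.mem_normalizer_iff.mp hcN h).mp hh
    have h2 : c * h * c⁻¹ * h⁻¹ ∈ H := H.mul_mem h1 (H.inv_mem hh)
    have h3 : h * c⁻¹ * h⁻¹ ∈ K := hK.conj_mem _ (K.inv_mem hc) h
    have h4 : c * h * c⁻¹ * h⁻¹ ∈ K := by
      have h5 : c * h * c⁻¹ * h⁻¹ = c * (h * c⁻¹ * h⁻¹) := by group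
      rw [h5]
      exact K.mul_mem hc h3
    have h6 : c * h * c⁻¹ * h⁻¹ ∈ K ⊓ H := ⟨h4, h2⟩
    rw [hdisj, Subgroup.mem_bot] at h6
    have h7 : c * h * c⁻¹ * h⁻¹ * (h * c) = h * c := by rw [h6, one_mul]
    simpa [mul_assoc] using h7
  let K' : Subgroup N := K.subgroupOf N
  let H' : Subgroup N := H.subgroupOf N
  haveI hK'n : K'.Normal := inferInstance
  letI : Fintype K' := Fintype.ofFinite K'
  have hK'H' : K' ⊔ H' = ⊤ := by
    rw [eq_top_iff]
    intro x _
    have hx : (x : G) ∈ ((K ⊔ H : Subgroup G) : Set G) := by rw [hKH]; trivial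
    rw [Subgroup.normal_mul] at hx
    obtain ⟨k, hk, h, hh, hkh⟩ := Set.mem_mul.mp hx
    have hkN : k ∈ N := by
      have h1 : k = (x : G) * h⁻¹ := by rw [← hkh]; group
      rw [h1]
      exact N.mul_mem x.2 (N.inv_mem (hHN hh))
    have h2 : x = (⟨k, hkN⟩ : N) * ⟨h, hHN hh⟩ := Subtype.ext hkh.symm
    rw [h2]
    exact Subgroup.mul_mem_sup (show (⟨k, hkN⟩ : N) ∈ K' from hk) (show (⟨h, hHN hh⟩ : N) ∈ H' from hh)
  have hcH' : Nat.card H' = Nat.card H := Nat.card_congr (Subgroup.subgroupOfEquivOfLe hHN).toEquiv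
  have hcK' : Nat.card K' ∣ Nat.card K := by
    have hinj : Function.Injective (fun x : K' => (⟨((x : N) : G), x.2⟩ : K)) := by
      intro x y h
      apply Subtype.ext
      apply Subtype.ext
      exact congrArg (fun z : K => (z : G)) h
    let f : K' →* K :=
      { toFun := fun x => ⟨((x : N) : G), x.2⟩
        map_one' := rfl
        map_mul' := fun _ _ => rfl }
    exact Subgroup.card_dvd_of_injective f hinj
  have hcop' : (Nat.card K').Coprime (Nat.card H') := by
    rw [hcH']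
    exact hcop.coprime_dvd_left hcK'
  have hleft := card_coprime_deg (G := G) hKH hcop
  have hright := card_coprime_deg (G := N) hK'H' hcop'
  rw [hcH'] at hright
  rw [hleft]
  have hright' : Nat.card {η : IrrCharacter (Subgroup.normalizer (H : Set G)) //
      (charDegree (η : Subgroup.normalizer (H : Set G) → ℂ)).Coprime (Nat.card H)} = _ := hright
  rw [hright']
  have hhom : Nat.card (H' →* ℂˣ) = Nat.card (H →* ℂˣ) :=
    Nat.card_congr (Subgroup.subgroupOfEquivOfLe hHN).monoidHomCongrLeft.toEquiv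
  rw [hhom]
  congr 1
  -- all characters of `K'` are invariant
  have hall : Nat.card {θ : IrrCharacter K' // ∀ s ∈ H', ∀ g g' : K', (g' : N) = s * g * s⁻¹ →
      (θ : K' → ℂ) g' = (θ : K' → ℂ) g} = Nat.card (IrrCharacter K') := by
    refine Nat.card_congr (Equiv.subtypeUnivEquiv fun θ s hs g g' hg' => ?_)
    have h1 : (g' : N) = g := by
      rw [hg']
      have h2 := hcomm ((g : N) : G) g.2 (g : N).2 (s : G) hs
      have h3 : (s : N) * (g : N) = (g : N) * s := Subtype.ext h2.symm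
      rw [h3]
      simp
    rw [Subtype.ext h1]
  rw [hall]
  let φ : H →* MulAut K := conjHom K H hnorm
  have hleft2 : Nat.card {θ : IrrCharacter K // ∀ s ∈ H, ∀ g g' : K, (g' : G) = s * g * s⁻¹ →
      (θ : K → ℂ) g' = (θ : K → ℂ) g} = Nat.card {χ : IrrCharacter K // ∀ s, (χ : K → ℂ) ∘ φ s = χ} :=
    Nat.card_congr (Equiv.subtypeEquivRight fun θ => inv_iff K H hnorm _)
  letI : Fintype (Cfsg.Agent.Lib.Glauberman.FixCount.fixAll φ) := Fintype.ofFinite _
  rw [hleft2, Cfsg.Agent.Lib.Glauberman.FixCount.card_inv_eq φ hcop hsolv]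
  -- the isomorphism of fixed points
  let i : K' →* Cfsg.Agent.Lib.Glauberman.FixCount.fixAll φ :=
    { toFun := fun c => ⟨⟨((c : N) : G), c.2⟩, fun s => by
        apply Subtype.ext
        show (s : G) * ((c : N) : G) * (s : G)⁻¹ = ((c : N) : G)
        rw [← hcomm ((c : N) : G) c.2 (c : N).2 (s : G) s.2]
        simp⟩
      map_one' := rfl
      map_mul' := fun _ _ => rfl }
  have hibij : Function.Bijective i := by
    constructor
    · intro x y h
      apply Subtype.ext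
      apply Subtype.ext
      have h1 := congrArg (fun z : Cfsg.Agent.Lib.Glauberman.FixCount.fixAll φ => ((z : K) : G)) h
      exact h1
    · rintro ⟨⟨c, hc⟩, hfix⟩
      have hch : ∀ h ∈ H, h * c * h⁻¹ = c := fun h hh =>
        congrArg (fun z : K => (z : G)) (hfix ⟨h, hh⟩)
      have hcN : c ∈ N := by
        rw [Subgroup.mem_normalizer_iff]
        intro h
        constructor
        · intro hh
          have h1 : c * h * c⁻¹ = h := by
            have h2 := hch h hh
            calc c * h * c⁻¹ = (h * c * h⁻¹) * h * c⁻¹ := by rw [h2]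
              _ = h := by group
          rw [h1]
          exact hh
        · intro hh
          have h1 : c⁻¹ * (c * h * c⁻¹) * c = h := by group
          rw [← h1]
          have h2 := hch (c * h * c⁻¹) hh
          have h3 : c⁻¹ * (c * h * c⁻¹) * c = c * h * c⁻¹ := by
            calc c⁻¹ * (c * h * c⁻¹) * c = ((c * h * c⁻¹) * c * (c * h * c⁻¹)⁻¹)⁻¹ * (c * h * c⁻¹) * c := by
                  rw [h2]
              _ = c * h * c⁻¹ := by group
          rw [h3]
          exact hh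
      exact ⟨⟨⟨c, hcN⟩, hc⟩, rfl⟩
  let ie := MulEquiv.ofBijective i hibij
  exact Nat.card_congr ⟨fun γ => ⟨(γ : _ → ℂ) ∘ ie, isIrrCharacter_comp_mulEquiv _ γ.2⟩,
    fun γ => ⟨(γ : _ → ℂ) ∘ ie.symm, isIrrCharacter_comp_mulEquiv _ γ.2⟩,
    fun γ => Subtype.ext (funext fun c => by simp),
    fun γ => Subtype.ext (funext fun c => by simp)⟩

end Cfsg.Agent.Lib.Glauberman.ExtCount
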