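import Mathlib
import Cfsg.Agent.Lib.Glauberman.CyclicMain
import Cfsg.Agent.Lib.Glauberman.Prime

/-!
# Coprime cyclic actions in which every non-identity element has the same fixed points
-/

set_option autoImplicit false

namespace Cfsg.Agent.Lib.Glauberman.FPF

open Module Finset
open Cfsg Cfsg.Agent.Lib.Char.Basic Cfsg.Agent.Lib.Char.Ortho Cfsg.Agent.Lib.Char.Complete
open Cfsg.Agent.Lib.Char.Conj
open Cfsg.Agent.Lib.Glauberman.Twist Cfsg.Agent.Lib.Glauberman.Coset
open Cfsg.Agent.Lib.Glauberman.Fourier Cfsg.Agent.Lib.Glauberman.Step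
open Cfsg.Agent.Lib.Glauberman.CyclicCore Cfsg.Agent.Lib.Glauberman.ConjAct
open Cfsg.Agent.Lib.Glauberman.Canonical Cfsg.Agent.Lib.Glauberman.CyclicMain
open scoped ComplexConjugate

universe u

variable {Γ : Type u} [Group Γ] [Fintype Γ] {G S C : Subgroup Γ} [Fintype G]

/-- Identification of scaled irreducibles. -/
theorem irr_eq_of_scaled {H : Type u} [Group H] [Fintype H] {β β' : IrrCharacter H} {x y : ℂ}
    (hx : x ≠ 0) (hy : y ≠ 0) (h : ∀ c, x * (β : H → ℂ) c = y * (β' : H → ℂ) c) : β = β' := by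
  by_contra hcon
  have h0 := classInner_eq_zero_of_isIrr_of_ne β.2 β'.2 (fun h => hcon (Subtype.ext h))
  have h1 : (β' : H → ℂ) = (x * y⁻¹) • (β : H → ℂ) := by
    funext c
    have := h c
    simp only [Pi.smul_apply, smul_eq_mul]
    field_simp
    rw [mul_comm, ← this, mul_comm]
  rw [h1, classInner_smul_right, classInner_self_of_isIrr β.2, mul_one] at h0
  exact (mul_ne_zero ((map_ne_zero _).mpr hx) ((map_ne_zero _).mpr (inv_ne_zero hy))) (by
    rw [map_mul] at h0
    exact h0)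

/-- The powers of the generator parametrise `S`. -/
theorem exists_param {t : Γ} (ht : Subgroup.zpowers t = S) [NeZero (Nat.card S)] :
    ∃ F : Multiplicative (ZMod (Nat.card S)) ≃* S, ∀ a, ((F a : S) : Γ) = t ^ (Multiplicative.toAdd a).val := by
  have ht1 : (⟨t, tmem ht⟩ : S) ^ Nat.card S = 1 := Subtype.ext (pow_card_gen ht)
  let f : Multiplicative (ZMod (Nat.card S)) →* S :=
    { toFun := fun a => (⟨t, tmem ht⟩ : S) ^ (Multiplicative.toAdd a).val
      map_one' := by simp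
      map_mul' := fun a b => by
        rw [toAdd_mul, ZMod.val_add, ← pow_add]
        exact pow_mod_eq ht1 _ }
  have hord : orderOf t = Nat.card S := by rw [← Nat.card_zpowers, ht]
  have hinj : Function.Injective f := by
    intro a b h
    have h1 : t ^ (Multiplicative.toAdd a).val = t ^ (Multiplicative.toAdd b).val := congrArg Subtype.val h
    have h2 := (pow_inj_mod (x := t)).mp h1
    rw [hord, Nat.mod_eq_of_lt (ZMod.val_lt _), Nat.mod_eq_of_lt (ZMod.val_lt _)] at h2
    exact Multiplicative.toAdd.injective (ZMod.val_injective _ h2)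
  have hsurj : Function.Surjective f := by
    rintro ⟨x, hx⟩
    have hx' : x ∈ Subgroup.zpowers t := by rw [ht]; exact hx
    obtain ⟨l, hl⟩ := pow_of_zpowers hx'
    refine ⟨Multiplicative.ofAdd (l : ZMod (Nat.card S)), Subtype.ext ?_⟩
    show t ^ ((l : ZMod (Nat.card S))).val = x
    rw [ZMod.val_natCast, ← hl]
    have h3 : t ^ Nat.card S = 1 := pow_card_gen ht
    exact pow_mod_eq h3 l
  exact ⟨MulEquiv.ofBijective f ⟨hinj, hsurj⟩, fun a => rfl⟩

/-- Powers of the generator have the same fixed points. -/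
theorem setup_of_fpf (hnorm : ∀ s ∈ S, ∀ g ∈ G, s * g * s⁻¹ ∈ G)
    (hcop : (Nat.card G).Coprime (Nat.card S)) (hC : C = G ⊓ Subgroup.centralizer (S : Set Γ))
    (hfpf : ∀ x ∈ S, x ≠ 1 → G ⊓ Subgroup.centralizer ({x} : Set Γ) = C)
    {t : Γ} (ht : Subgroup.zpowers t = S) [NeZero (Nat.card S)] (a : ZMod (Nat.card S)) (ha : a ≠ 0) :
    Setup ((gen hnorm ht) ^ a.val) (Nat.card S) (C.subgroupOf G) := by
  have hS := setup_gen (C := C) hnorm hcop hC ht
  refine ⟨hS.ne, by rw [← pow_mul, mul_comm, pow_mul, hS.pow, one_pow], hS.cop, fun g => ?_⟩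
  have hord : orderOf t = Nat.card S := by rw [← Nat.card_zpowers, ht]
  have hx : t ^ a.val ≠ 1 := by
    intro h
    have h1 := orderOf_dvd_of_pow_eq_one h
    rw [hord] at h1
    have h2 := Nat.eq_zero_of_dvd_of_lt h1 (ZMod.val_lt a)
    exact ha ((ZMod.val_eq_zero a).mp h2)
  have hmem : t ^ a.val ∈ S := S.pow_mem (tmem ht) _
  have hfp := hfpf _ hmem hx
  rw [Subgroup.mem_subgroupOf, ← hfp]
  have hgen : ((gen hnorm ht) ^ a.val : MulAut G) = conjHom G S hnorm (⟨t, tmem ht⟩ ^ a.val) := by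
    rw [gen, map_pow]
  rw [hgen]
  have hcoe : (((⟨t, tmem ht⟩ : S) ^ a.val : S) : Γ) = t ^ a.val := rfl
  constructor
  · intro h
    have h1 := (Subgroup.mem_inf.mp h).2
    have h2 : (t ^ a.val) * (g : Γ) = g * t ^ a.val :=
      (Subgroup.mem_centralizer_iff.mp h1 _ rfl)
    apply Subtype.ext
    rw [conjHom_coe, hcoe, h2]
    simp
  · intro h
    have h1 := congrArg Subtype.val h
    rw [conjHom_coe, hcoe] at h1
    refine Subgroup.mem_inf.mpr ⟨g.2, ?_⟩
    rw [Subgroup.mem_centralizer_iff]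
    intro y hy
    rw [Set.mem_singleton_iff] at hy
    subst hy
    calc t ^ a.val * (g : Γ) = t ^ a.val * g * (t ^ a.val)⁻¹ * t ^ a.val := by group
      _ = g * t ^ a.val := by rw [h1]

/-- The trivial case. -/
theorem fpf_trivial (S : Subgroup Γ) (hN : Nat.card S = 1) {t : Γ} (ht : Subgroup.zpowers t = S) :
    t = 1 ∧ ∀ x : S, x = 1 := by
  have h1 : ∀ x : S, x = 1 := fun x => by
    haveI : Subsingleton S := (Nat.card_eq_one_iff_unique.mp hN).1
    exact Subsingleton.elim _ _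
  refine ⟨?_, h1⟩
  have := h1 ⟨t, tmem ht⟩
  exact congrArg Subtype.val this

variable [Fintype C]

/-- The main theorem on actions in which all non-identity elements have the same fixed points. -/
theorem fpf_main (hnorm : ∀ s ∈ S, ∀ g ∈ G, s * g * s⁻¹ ∈ G)
    (hcop : (Nat.card G).Coprime (Nat.card S)) (htop : G ⊔ S = ⊤) (hcyc : IsCyclic S)
    (hC : C = G ⊓ Subgroup.centralizer (S : Set Γ)) (hCG : C ≤ G)
    (hfpf : ∀ x ∈ S, x ≠ 1 → G ⊓ Subgroup.centralizer ({x} : Set Γ) = C)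
    (χ : IrrCharacter G)
    (hinv : ∀ s ∈ S, ∀ g g' : G, (g' : Γ) = s * g * s⁻¹ → (χ : G → ℂ) g' = (χ : G → ℂ) g)
    (χh : IrrCharacter Γ) (hext : ∀ g : G, (χh : Γ → ℂ) g = (χ : G → ℂ) g)
    (hdet : (detOrder (χh : Γ → ℂ)).Coprime (Nat.card S))
    (β : IrrCharacter C) (ε₀ : ℤ) (hε₀ : ε₀ = 1 ∨ ε₀ = -1)
    (hβ : ∀ c : C, ∀ s : Γ, Subgroup.zpowers s = S →
      (χh : Γ → ℂ) ((c : Γ) * s) = (ε₀ : ℂ) * (β : C → ℂ) c) :
    ∃ ε : ℤ, (ε = 1 ∨ ε = -1) ∧
      (∃ μ : S → ℂ, IsCharacter S μ ∧ μ 1 = 1 ∧ (∀ x : S, μ x * μ x = 1) ∧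
        ∀ c : C, ∀ x : S, x ≠ 1 → (χh : Γ → ℂ) ((c : Γ) * x) = (ε : ℂ) * (β : C → ℂ) c * μ x) ∧
      (∃ ϑ : C → ℂ, IsCharacter C ϑ ∧ (fun c : C => (χ : G → ℂ) ⟨c, hCG c.2⟩) =
        fun c => (Nat.card S : ℂ) * ϑ c + (ε : ℂ) * (β : C → ℂ) c) ∧
      (Nat.card S : ℤ) ∣ (charDegree (χ : G → ℂ) : ℤ) - ε * (charDegree (β : C → ℂ) : ℤ) := by
  classical
  obtain ⟨t, ht⟩ := exists_generator hcyc
  by_cases hN : Nat.card S = 1
  · obtain ⟨ht1, hall⟩ := fpf_trivial S hN ht
    refine ⟨ε₀, hε₀, ⟨fun _ => 1, isCharacter_one, rfl, fun _ => by simp, ?_⟩,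
      ⟨0, isCharacter_zero, ?_⟩, ?_⟩
    · intro c x hx
      exact absurd (hall x) hx
    · funext c
      have h1 := hβ c t ht
      rw [ht1, mul_one] at h1
      rw [hN]
      simp only [Pi.zero_apply, Nat.cast_one, mul_zero, zero_add]
      rw [← h1, ← hext]
    · rw [hN]
      simp
  · have hN2 : 2 ≤ Nat.card S := by
      have : 0 < Nat.card S := Nat.card_pos
      omega
    haveI : NeZero (Nat.card S) := ⟨Nat.card_pos.ne'⟩
    haveI : Fact (1 < Nat.card S) := ⟨hN2⟩
    letI : Fintype (C.subgroupOf G) := Fintype.ofFinite _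
    haveI := finite_irrCharacter (G := C.subgroupOf G)
    letI : Fintype (IrrCharacter (C.subgroupOf G)) := Fintype.ofFinite _
    have hS := setup_gen (C := C) hnorm hcop hC ht
    have hCfix : ∀ c : C.subgroupOf G, (gen hnorm ht) (c : G) = c := fun c => (hS.fix c).mp c.2
    obtain ⟨n, ρh, hρh, hχh⟩ := χh.2
    have hext' : ∀ g : G, ρh.character g = (χ : G → ℂ) g := fun g => by rw [hχh]; exact hext g
    have hdet' : (detOrder ρh.character).Coprime (Nat.card S) := by rw [hχh]; exact hdet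
    have hirr : IsIrrCharacter Γ ρh.character := by rw [hχh]; exact χh.2
    have hρ := resRep_irr ρh χ hext'
    have htw := isTwist_res hnorm ht ρh
    have hA := rep_pow_card ht ρh
    obtain ⟨β', ε, j₀, m, hε, hval, hmult⟩ := step_main hρ hN2
      (setup_of_fpf hnorm hcop hC hfpf ht) hCfix htw hA
    have hv : ∀ (a : ZMod (Nat.card S)), a ≠ 0 → ∀ c : C,
        (χh : Γ → ℂ) ((c : Γ) * t ^ a.val) =
          (ε : ℂ) * e (j₀ * a) * (β' : C.subgroupOf G → ℂ) (eC hCG c) := by
      intro a ha c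
      have h1 := tf_res_pow ρh t a.val (eC hCG c)
      rw [hval a ha] at h1
      rw [← hχh]
      exact h1.symm
    have h1ne : (1 : ZMod (Nat.card S)) ≠ 0 := one_ne_zero
    have hval1 : (1 : ZMod (Nat.card S)).val = 1 := ZMod.val_one _
    have hεne : (ε : ℂ) ≠ 0 := by
      rcases hε with h | h <;> rw [h] <;> simp
    have hε₀ne : (ε₀ : ℂ) ≠ 0 := by
      rcases hε₀ with h | h <;> rw [h] <;> simp
    have hβ1 : ∀ c : C, (ε₀ : ℂ) * (β : C → ℂ) c =
        ((ε : ℂ) * e j₀) * (β' : C.subgroupOf G → ℂ) (eC hCG c) := by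
      intro c
      have h1 := hv 1 h1ne c
      rw [hval1, pow_one, mul_one] at h1
      rw [← hβ c t ht, h1]
    let β'' : IrrCharacter C := ⟨(β' : C.subgroupOf G → ℂ) ∘ eC hCG, isIrrCharacter_comp_mulEquiv _ β'.2⟩
    have hββ : β = β'' := irr_eq_of_scaled hε₀ne (mul_ne_zero hεne (e_ne_zero _)) hβ1
    have hββ' : ∀ c : C, (β' : C.subgroupOf G → ℂ) (eC hCG c) = (β : C → ℂ) c := fun c => by
      rw [hββ]; rfl
    -- the sign of `j₀`
    have hneg : (e (-j₀) : ℂ) = e j₀ := by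
      have hcopk : (Nat.card S - 1).Coprime (Nat.card S) := by
        have h3 : (Nat.card S - 1).Coprime ((Nat.card S - 1) + 1) := by simp
        have h2 : (Nat.card S - 1) + 1 = Nat.card S := by omega
        rwa [h2] at h3
      have h2 := hgal_of_canon hnorm hcop htop hC ht ρh χ hinv hirr hext' hdet' (Nat.card S - 1) hcopk
        (1 : C) G.one_mem
      rw [hχh] at h2
      have hnegval : (-1 : ZMod (Nat.card S)).val = Nat.card S - 1 := by
        rw [ZMod.neg_val, if_neg h1ne, hval1]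
      have h3 := hv (-1) (neg_ne_zero.mpr h1ne) 1
      have h4 := hv 1 h1ne 1
      rw [hval1, pow_one, mul_one] at h4
      rw [hnegval, mul_neg_one] at h3
      rw [h3, h4] at h2
      have h5 : (β' : C.subgroupOf G → ℂ) (eC hCG 1) ≠ 0 := by
        rw [map_one]
        exact irr_one_ne_zero β'.2
      exact mul_left_cancel₀ hεne (mul_right_cancel₀ h5 h2)
    have h2j : j₀ + j₀ = 0 := by
      apply ZMod.injective_stdAddChar
      have h1 : (e (j₀ + j₀) : ℂ) = e j₀ * e j₀ := AddChar.map_add_eq_mul _ _ _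
      have h2 : (e j₀ : ℂ) * e j₀ = 1 := by
        nth_rewrite 1 [← hneg]
        rw [e_neg, mul_comm]
        exact e_mul_conj _
      show (e (j₀ + j₀) : ℂ) = e 0
      rw [h1, h2]
      exact (AddChar.map_zero_eq_one _).symm
    obtain ⟨F, hF⟩ := exists_param ht
    have hϑ : IsCharacter C (fun c => ∑ γ : IrrCharacter (C.subgroupOf G), (m γ : ℂ) * (γ : C.subgroupOf G → ℂ) (eC hCG c)) := by
      have h1 : IsCharacter (C.subgroupOf G) (fun c => ∑ γ : IrrCharacter (C.subgroupOf G), (m γ : ℂ) * (γ : C.subgroupOf G → ℂ) c) := by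
        have h2 := isCharacter_sum Finset.univ (fun γ : IrrCharacter (C.subgroupOf G) => m γ • (γ : C.subgroupOf G → ℂ))
          (fun γ _ => isCharacter_nsmul (isCharacter_of_isIrrCharacter γ.2) _)
        convert h2 using 1
        funext c
        simp [Finset.sum_apply]
      exact isCharacter_comp (eC hCG).toMonoidHom h1
    have hexpand : (fun c : C => (χ : G → ℂ) ⟨c, hCG c.2⟩) = fun c => (Nat.card S : ℂ) *
        (∑ γ : IrrCharacter (C.subgroupOf G), (m γ : ℂ) * (γ : C.subgroupOf G → ℂ) (eC hCG c)) + (ε : ℂ) * (β : C → ℂ) c := by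
      have hT : tf (resRep G ρh) (C.subgroupOf G) (ρh t ^ (0 : ZMod (Nat.card S)).val) =
          fun c : C.subgroupOf G => (χ : G → ℂ) (c : G) := by
        funext c
        show LinearMap.trace ℂ _ (resRep G ρh _ * (ρh t ^ (0 : ZMod (Nat.card S)).val)) = _
        rw [ZMod.val_zero, pow_zero, mul_one, ← hext']
        rfl
      rw [hT] at hmult
      have hcf : IsClassFunction (C.subgroupOf G) (fun c => (χ : G → ℂ) (c : G)) :=
        isClassFunction_of_isCharacter (χ := (fun c : C.subgroupOf G => (χ : G → ℂ) (c : G)))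
          (isCharacter_comp (C.subgroupOf G).subtype (isCharacter_of_isIrrCharacter χ.2))
      have hexp := classFunction_eq_sum hcf
      funext c
      have h2 := congrFun hexp (eC hCG c)
      simp only [Finset.sum_apply, Pi.smul_apply, smul_eq_mul, hmult] at h2
      have h3 : (χ : G → ℂ) ((eC hCG c : C.subgroupOf G) : G) = (χ : G → ℂ) ⟨c, hCG c.2⟩ := rfl
      rw [h3] at h2
      rw [h2, ← hββ' c, Finset.mul_sum, ← Finset.add_sum_erase _ _ (Finset.mem_univ β'),
        ← Finset.add_sum_erase (Finset.univ) (fun γ : IrrCharacter (C.subgroupOf G) => (Nat.card S : ℂ) * ((m γ : ℂ) * (γ : C.subgroupOf G → ℂ) (eC hCG c))) (Finset.mem_univ β')]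
      rw [if_pos rfl]
      have h4 : ∑ x ∈ Finset.univ.erase β', (((Nat.card S : ℤ) * (m x : ℤ) + if x = β' then ε else 0 : ℤ) : ℂ) * (x : C.subgroupOf G → ℂ) (eC hCG c) =
          ∑ γ ∈ Finset.univ.erase β', (Nat.card S : ℂ) * ((m γ : ℂ) * (γ : C.subgroupOf G → ℂ) (eC hCG c)) := by
        refine Finset.sum_congr rfl fun γ hγ => ?_
        rw [if_neg (Finset.ne_of_mem_erase hγ)]
        push_cast
        ring
      rw [h4]
      push_cast
      ring
    refine ⟨ε, hε, ⟨fun x => lam j₀ (F.symm x), ?_, ?_, ?_, ?_⟩, ⟨_, hϑ, hexpand⟩, ?_⟩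
    · exact isCharacter_comp F.symm.toMonoidHom (isCharacter_lam j₀)
    · simp [lam]
    · intro x
      show (e (j₀ * Multiplicative.toAdd (F.symm x)) : ℂ) * e (j₀ * Multiplicative.toAdd (F.symm x)) = 1
      rw [← AddChar.map_add_eq_mul, ← add_mul, h2j, zero_mul]
      exact AddChar.map_zero_eq_one _
    · intro c x hx
      have h1 : (Multiplicative.toAdd (F.symm x)) ≠ 0 := by
        intro h
        apply hx
        have h2 : F.symm x = 1 := Multiplicative.toAdd.injective h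
        have h3 := congrArg F h2
        rw [MulEquiv.apply_symm_apply, map_one] at h3
        exact h3
      have h2 := hv _ h1 c
      rw [← hF (F.symm x), MulEquiv.apply_symm_apply, hββ'] at h2
      rw [h2]
      show _ = _ * (β : C → ℂ) c * (e (j₀ * Multiplicative.toAdd (F.symm x)) : ℂ)
      ring
    · obtain ⟨d, hd⟩ := exists_deg_of_isCharacter hϑ
      have h1 := congrFun hexpand 1
      have h2 : (∑ γ : IrrCharacter (C.subgroupOf G), (m γ : ℂ) * (γ : C.subgroupOf G → ℂ) (eC hCG 1)) = (d : ℂ) := hd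
      rw [h2] at h1
      have h3 : (charDegree (χ : G → ℂ) : ℂ) = (χ : G → ℂ) ⟨((1 : C) : Γ), hCG (1 : C).2⟩ :=
        Cfsg.Agent.Lib.Char.Degree.charDegree_natCast (isCharacter_of_isIrrCharacter χ.2)
      have h4 : (charDegree (β : C → ℂ) : ℂ) = (β : C → ℂ) 1 :=
        Cfsg.Agent.Lib.Char.Degree.charDegree_natCast (isCharacter_of_isIrrCharacter β.2)
      rw [← h3, ← h4] at h1
      have h5 : (charDegree (χ : G → ℂ) : ℤ) = (Nat.card S : ℤ) * d + ε * (charDegree (β : C → ℂ) : ℤ) := by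
        exact_mod_cast h1
      rw [h5]
      exact ⟨d, by ring⟩

end Cfsg.Agent.Lib.Glauberman.FPF
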